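import Cfsg.Agent.Lib.ModularReps.TracePower

/-!
Brauer's count: a complete list of pairwise distinct absolutely irreducible representations in
characteristic `p` has as many members as there are classes of elements of order prime to `p`.
-/

set_option autoImplicit false
set_option linter.unusedSectionVars false

open Module

namespace CfsgLib.ModularReps

universe u

variable {k : Type u} [Field k] {G : Type u} [Group G]

/-- No proper invariant subspace, and the space is not zero. -/
structure IsIrr {V : Type*} [AddCommGroup V] [Module k V] (ρ : Representation k G V) : Prop where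
  /-- the space is not zero -/
  nontrivial : Nontrivial V
  /-- invariant subspaces are trivial -/
  eq_bot_or_top : ∀ W : Submodule k V, (∀ g, ∀ w ∈ W, ρ g w ∈ W) → W = ⊥ ∨ W = ⊤

/-- An intertwining linear map. -/
def Intertwines {V W : Type*} [AddCommGroup V] [Module k V] [AddCommGroup W] [Module k W]
    (ρ : Representation k G V) (σ : Representation k G W) (T : V →ₗ[k] W) : Prop :=
  ∀ g v, T (ρ g v) = σ g (T v)

section

variable {V : Type*} [AddCommGroup V] [Module k V] [FiniteDimensional k V]

theorem surjective_asAlgebraHom {ρ : Representation k G V} (h : IsIrr ρ)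
    (hs : ∀ f : End k V, (∀ g, f * ρ g = ρ g * f) → ∃ c : k, f = c • 1) :
    Function.Surjective ρ.asAlgebraHom := by
  set A := (ρ.asAlgebraHom).range with hA
  have hg : ∀ g, ρ g ∈ A := fun g => ⟨MonoidAlgebra.single g 1, by
    rw [AlgHom.toRingHom_eq_coe, RingHom.coe_coe, Representation.asAlgebraHom_single, one_smul]⟩
  haveI := h.nontrivial
  have : IsSimpleModule A V := by
    refine @IsSimpleModule.mk _ _ _ _ _
      { exists_pair_ne := ⟨⊥, ⊤, bot_ne_top⟩, eq_bot_or_eq_top := fun S => ?_ }
    rcases h.eq_bot_or_top (S.restrictScalars k)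
      (fun g w hw => S.smul_mem ⟨ρ g, hg g⟩ hw) with h' | h'
    · exact Or.inl ((Submodule.restrictScalars_eq_bot_iff k _ _).1 h')
    · exact Or.inr ((Submodule.restrictScalars_eq_top_iff k _ _).1 h')
  have hend : ∀ f : End A V, ∃ c : k, ∀ v, f v = c • v := by
    intro f
    obtain ⟨c, hc⟩ := hs (f.restrictScalars k) fun g => by
      ext v
      exact f.map_smul ⟨ρ g, hg g⟩ v
    exact ⟨c, fun v => LinearMap.congr_fun hc v⟩
  have : Module.Finite (End A V) V := Module.Finite.of_restrictScalars_finite k _ _
  intro f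
  let φ : End (End A V) V :=
    { toFun := f
      map_add' := map_add f
      map_smul' := fun a v => by
        obtain ⟨c, hc⟩ := hend a
        simp only [RingHom.id_apply, Module.End.smul_def, hc, map_smul] }
  obtain ⟨⟨r, z, hz⟩, hr⟩ := Module.Finite.toModuleEnd_moduleEnd_surjective (R := A) (M := V) φ
  exact ⟨z, hz.trans (LinearMap.ext fun v => congrArg (fun ψ : End (End A V) V => ψ v) hr)⟩

theorem exists_dual_ne {V : Type*} [AddCommGroup V] [Module k V] {v : V} (hv : v ≠ 0) :
    ∃ φ : Module.Dual k V, φ v ≠ 0 := by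
  by_contra hno
  push Not at hno
  exact hv ((Module.forall_dual_apply_eq_zero_iff k v).1 hno)

/-- Rank one maps. -/
theorem trace_rankOne (φ : Module.Dual k V) (w : V) :
    LinearMap.trace k V (φ.smulRight w) = φ w := LinearMap.trace_smulRight φ w

/-- Every map is its trace times a fixed rank one projection modulo additive commutators. -/
theorem sub_trace_mem_commutators (φ₀ : Module.Dual k V) (v₀ : V) (h₀ : φ₀ v₀ = 1) (f : End k V) :
    f - LinearMap.trace k V f • φ₀.smulRight v₀ ∈
      Submodule.span k (Set.range fun ab : End k V × End k V => ab.1 * ab.2 - ab.2 * ab.1) := by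
  set N := Submodule.span k (Set.range fun ab : End k V × End k V => ab.1 * ab.2 - ab.2 * ab.1)
  have key : ∀ (φ : Module.Dual k V) (w : V),
      φ.smulRight w - φ w • φ₀.smulRight v₀ ∈ N := by
    intro φ w
    refine Submodule.subset_span ⟨(φ₀.smulRight w, φ.smulRight v₀), ?_⟩
    ext x
    simp [h₀, smul_smul, mul_comm]
  let b := Module.finBasis k V
  have hf : f = ∑ i, (b.coord i).smulRight (f (b i)) := by
    refine b.ext fun j => ?_
    rw [LinearMap.sum_apply, Finset.sum_eq_single j]
    · simp
    · intro i _ hi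
      simp [Finsupp.single_eq_of_ne hi]
    · simp
  rw [hf, map_sum, Finset.sum_smul, ← Finset.sum_sub_distrib]
  exact Submodule.sum_mem _ fun i _ => by rw [trace_rankOne]; exact key _ _

end

variable {P : Type*} [Finite P] {V : P → Type u} [∀ x, AddCommGroup (V x)] [∀ x, Module k (V x)]
  [∀ x, FiniteDimensional k (V x)] {ρ : ∀ x, Representation k G (V x)}

theorem exists_separating (hI : ∀ x, IsIrr (ρ x))
    (hs : ∀ x (f : End k (V x)), (∀ g, f * ρ x g = ρ x g * f) → ∃ c : k, f = c • 1)
    {x y : P} (hne : ∀ T : V y →ₗ[k] V x, Intertwines (ρ y) (ρ x) T → T = 0) :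
    ∃ z, (ρ x).asAlgebraHom z = 1 ∧ (ρ y).asAlgebraHom z = 0 := by
  classical
  set ax := (ρ x).asAlgebraHom
  set ay := (ρ y).asAlgebraHom
  have sx := surjective_asAlgebraHom (hI x) (hs x)
  have sy := surjective_asAlgebraHom (hI y) (hs y)
  by_cases hsub : ∀ z, ay z = 0 → ax z = 0
  · -- otherwise `V x` would be a module over `End (V y)`
    exfalso
    choose sec hsec using sy
    have hψ : ∀ z w, ay z = ay w → ax z = ax w := fun z w e => by
      rw [← sub_eq_zero, ← map_sub]
      exact hsub _ (by rw [map_sub, e, sub_self])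
    haveI := (hI x).nontrivial
    obtain ⟨v, hv⟩ := exists_ne (0 : V x)
    let b := Module.finBasis k (V y)
    obtain ⟨i, hi⟩ : ∃ i, ax (sec ((b.coord i).smulRight (b i))) v ≠ 0 := by
      by_contra hno
      push Not at hno
      refine hv ?_
      have e : ay (∑ i, sec ((b.coord i).smulRight (b i))) = ay 1 := by
        rw [map_sum, map_one]
        simp only [ay, hsec]
        refine b.ext fun j => ?_
        rw [LinearMap.sum_apply, Finset.sum_eq_single j]
        · simp
        · intro i _ hi
          simp [Finsupp.single_eq_of_ne hi]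
        · simp
      have e2 := LinearMap.congr_fun (hψ _ _ e) v
      rw [map_sum, map_one, LinearMap.sum_apply, Module.End.one_apply,
        Finset.sum_eq_zero fun i _ => hno i] at e2
      exact e2.symm
    let T : V y →ₗ[k] V x :=
      { toFun := fun w => ax (sec ((b.coord i).smulRight w)) v
        map_add' := fun w w' => by
          have e : ay (sec ((b.coord i).smulRight (w + w'))) =
              ay (sec ((b.coord i).smulRight w) + sec ((b.coord i).smulRight w')) := by
            rw [map_add]
            simp only [ay, hsec]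
            ext u; simp [smul_add]
          rw [hψ _ _ e, map_add, LinearMap.add_apply]
        map_smul' := fun c w => by
          have e : ay (sec ((b.coord i).smulRight (c • w))) =
              ay (c • sec ((b.coord i).smulRight w)) := by
            rw [map_smul]
            simp only [ay, hsec]
            ext u; simp [smul_smul, mul_comm]
          rw [hψ _ _ e, map_smul, LinearMap.smul_apply, RingHom.id_apply] }
    have hT : Intertwines (ρ y) (ρ x) T := by
      intro g w
      show ax (sec _) v = ρ x g (ax (sec _) v)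
      have e : ay (sec ((b.coord i).smulRight (ρ y g w))) =
          ay (MonoidAlgebra.single g 1 * sec ((b.coord i).smulRight w)) := by
        rw [map_mul]
        simp only [ay, hsec, Representation.asAlgebraHom_single, one_smul]
        ext u
        simp
      rw [hψ _ _ e, map_mul]
      simp only [ax, Representation.asAlgebraHom_single, one_smul, Module.End.mul_apply]
    exact hi (LinearMap.congr_fun (hne T hT) (b i))
  · push Not at hsub
    obtain ⟨z, hz, hz'⟩ := hsub
    obtain ⟨w, hw⟩ : ∃ w, ax z w ≠ 0 := by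
      by_contra hno
      push Not at hno
      exact hz' (LinearMap.ext hno)
    obtain ⟨φ, hφ⟩ : ∃ φ : Module.Dual k (V x), φ (ax z w) = 1 := by
      obtain ⟨φ, hφ⟩ := exists_dual_ne (k := k) hw
      exact ⟨(φ (ax z w))⁻¹ • φ, by simp [hφ]⟩
    choose sec hsec using sx
    let b := Module.finBasis k (V x)
    refine ⟨∑ i, sec (φ.smulRight (b i)) * z * sec ((b.coord i).smulRight w), ?_, ?_⟩
    · rw [map_sum]
      refine b.ext fun j => ?_
      rw [LinearMap.sum_apply, Finset.sum_eq_single j]
      · simp [map_mul, hsec, hφ, ax]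
      · intro i _ hi
        simp [map_mul, hsec, ax, Finsupp.single_eq_of_ne hi]
      · simp
    · rw [map_sum]
      exact Finset.sum_eq_zero fun i _ => by rw [map_mul, map_mul, hz, mul_zero, zero_mul]

/-- A complete list of absolutely irreducible representations. -/
structure IsCompleteList (ρ : ∀ x, Representation k G (V x)) : Prop where
  /-- irreducibility -/
  irr : ∀ x, IsIrr (ρ x)
  /-- only scalar endomorphisms -/
  scalar : ∀ x (f : End k (V x)), (∀ g, f * ρ x g = ρ x g * f) → ∃ c : k, f = c • 1
  /-- pairwise distinct -/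
  distinct : ∀ x y, x ≠ y → ∀ T : V x →ₗ[k] V y, Intertwines (ρ x) (ρ y) T → T = 0
  /-- nothing is missing -/
  nil : ∀ z, (∀ x, (ρ x).asAlgebraHom z = 0) → IsNilpotent z

variable (h : IsCompleteList ρ)
include h

theorem IsCompleteList.exists_unit (x : P) :
    ∃ z, (ρ x).asAlgebraHom z = 1 ∧ ∀ y, y ≠ x → (ρ y).asAlgebraHom z = 0 := by
  classical
  haveI := Fintype.ofFinite P
  suffices key : ∀ s : Finset P, x ∉ s →
      ∃ z, (ρ x).asAlgebraHom z = 1 ∧ ∀ y ∈ s, (ρ y).asAlgebraHom z = 0 by
    obtain ⟨z, hz, hz'⟩ := key (Finset.univ.erase x) (Finset.notMem_erase _ _)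
    exact ⟨z, hz, fun y hy => hz' y (Finset.mem_erase.2 ⟨hy, Finset.mem_univ y⟩)⟩
  intro s
  induction s using Finset.induction_on with
  | empty => intro _; exact ⟨1, map_one _, fun y hy => absurd hy (Finset.notMem_empty y)⟩
  | insert a s ha ih =>
    intro hx
    rw [Finset.mem_insert, not_or] at hx
    obtain ⟨z, hz, hz'⟩ := ih hx.2
    obtain ⟨w, hw, hw'⟩ := exists_separating h.irr h.scalar (x := x) (y := a)
      (fun T hT => h.distinct a x (Ne.symm hx.1) T hT)
    refine ⟨z * w, by rw [map_mul, hz, hw, one_mul], fun y hy => ?_⟩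
    rcases Finset.mem_insert.1 hy with rfl | hy
    · rw [map_mul, hw', mul_zero]
    · rw [map_mul, hz' y hy, zero_mul]

theorem IsCompleteList.exists_lift (f : ∀ x, End k (V x)) :
    ∃ z, ∀ x, (ρ x).asAlgebraHom z = f x := by
  classical
  haveI := Fintype.ofFinite P
  choose e he he' using h.exists_unit
  choose sec hsec using fun x => surjective_asAlgebraHom (h.irr x) (h.scalar x) (f x)
  refine ⟨∑ x, e x * sec x, fun x => ?_⟩
  rw [map_sum, Finset.sum_eq_single x]
  · rw [map_mul, he, hsec, one_mul]
  · intro y _ hy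
    rw [map_mul, he' y x hy.symm, zero_mul]
  · simp

/-- An element with all traces zero is congruent to a nilpotent one modulo commutators. -/
theorem IsCompleteList.trEq_nilpotent (z : MonoidAlgebra k G)
    (hz : ∀ x, LinearMap.trace k (V x) ((ρ x).asAlgebraHom z) = 0) :
    ∃ w, IsNilpotent w ∧ TrEq k z w := by
  classical
  haveI := Fintype.ofFinite P
  set N : Submodule k (MonoidAlgebra k G) := Submodule.span k
    (Set.range fun ab : MonoidAlgebra k G × MonoidAlgebra k G => ab.1 * ab.2 - ab.2 * ab.1)
  have hx : ∀ x, ∃ y ∈ N, (ρ x).asAlgebraHom y = (ρ x).asAlgebraHom z ∧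
      ∀ x', x' ≠ x → (ρ x').asAlgebraHom y = 0 := by
    intro x
    haveI := (h.irr x).nontrivial
    obtain ⟨v₀, hv₀⟩ := exists_ne (0 : V x)
    obtain ⟨φ, hφ⟩ := exists_dual_ne (k := k) hv₀
    have hmem := sub_trace_mem_commutators ((φ v₀)⁻¹ • φ) v₀ (by simp [hφ]) ((ρ x).asAlgebraHom z)
    rw [hz x, zero_smul, sub_zero] at hmem
    generalize (ρ x).asAlgebraHom z = f at hmem ⊢
    induction hmem using Submodule.span_induction with
    | mem f hf =>
      obtain ⟨⟨a, b⟩, rfl⟩ := hf
      obtain ⟨za, hza⟩ := h.exists_lift (Pi.single x a)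
      obtain ⟨zb, hzb⟩ := h.exists_lift (Pi.single x b)
      refine ⟨za * zb - zb * za, Submodule.subset_span ⟨(za, zb), rfl⟩, ?_, fun x' hx' => ?_⟩
      · simp [map_sub, map_mul, hza, hzb]
      · simp [map_sub, map_mul, hza, hzb, Pi.single_eq_of_ne hx']
    | zero => exact ⟨0, N.zero_mem, map_zero _, fun x' _ => map_zero _⟩
    | add f g _ _ hf hg =>
      obtain ⟨y, hy, e, e'⟩ := hf
      obtain ⟨y', hy', d, d'⟩ := hg
      exact ⟨y + y', N.add_mem hy hy', by rw [map_add, e, d],
        fun x' hx' => by rw [map_add, e' x' hx', d' x' hx', add_zero]⟩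
    | smul c f _ hf =>
      obtain ⟨y, hy, e, e'⟩ := hf
      exact ⟨c • y, N.smul_mem c hy, by rw [map_smul, e],
        fun x' hx' => by rw [map_smul, e' x' hx', smul_zero]⟩
  choose y hyN hye hye' using hx
  refine ⟨z - ∑ x, y x, h.nil _ fun x => ?_, fun τ hτ => ?_⟩
  · rw [map_sub, map_sum, Finset.sum_eq_single x (fun x' _ hx' => hye' x' x hx'.symm) (by simp),
      hye, sub_self]
  · have hN : ∀ t ∈ N, τ t = 0 := by
      intro t ht
      induction ht using Submodule.span_induction with
      | mem t ht => obtain ⟨⟨a, b⟩, rfl⟩ := ht; rw [map_sub, hτ a b, sub_self]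
      | zero => exact map_zero τ
      | add a b _ _ ha hb => rw [map_add, ha, hb, add_zero]
      | smul c a _ ha => rw [map_smul, ha, smul_zero]
    rw [map_sub, map_sum, Finset.sum_eq_zero fun x _ => hN _ (hyN x), sub_zero]

variable {p : ℕ} [hp : Fact p.Prime] [CharP k p] [Finite G]

omit h in
/-- The trace at an element only depends on its part of order prime to `p`. -/
theorem trace_eq_of_pElement {W : Type*} [AddCommGroup W] [Module k W] [FiniteDimensional k W]
    (σ : Representation k G W) {s u : G} (hsu : Commute s u) {m : ℕ} (hu : u ^ p ^ m = 1) :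
    LinearMap.trace k W (σ (s * u)) = LinearMap.trace k W (σ s) := by
  rcases subsingleton_or_nontrivial W with hW | hW
  · rw [Subsingleton.elim (σ (s * u)) (σ s)]
  haveI : CharP (End k W) p := charP_of_injective_algebraMap' k p
  rw [← sub_eq_zero, ← map_sub]
  refine IsNilpotent.eq_zero (LinearMap.isNilpotent_trace_of_isNilpotent ?_)
  rw [map_mul, ← mul_sub_one]
  refine (Commute.sub_right (hsu.map σ) (Commute.one_right _)).isNilpotent_mul_left ⟨p ^ m, ?_⟩
  rw [sub_pow_char_pow_of_commute p m (Commute.one_right _), ← map_pow, hu, map_one, one_pow,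
    sub_self]

omit h in
/-- The decomposition of an element into commuting parts. -/
theorem exists_parts (g : G) : ∃ s u : G, g = s * u ∧ Commute s u ∧
    (orderOf s).Coprime p ∧ ∃ m, u ^ p ^ m = 1 := by
  set n := orderOf g with hn
  have hn0 : n ≠ 0 := (orderOf_pos g).ne'
  set a := p ^ n.factorization p
  set b := n / p ^ n.factorization p
  have hab : a * b = n := Nat.ordProj_mul_ordCompl_eq_self n p
  have hcop : a.Coprime b := (Nat.coprime_ordCompl hp.out hn0).pow_left _
  have e := Nat.gcd_eq_gcd_ab a b
  rw [hcop] at e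
  refine ⟨g ^ ((a : ℤ) * a.gcdA b), g ^ ((b : ℤ) * a.gcdB b), ?_, ?_, ?_, n.factorization p, ?_⟩
  · rw [← zpow_add, ← e, Nat.cast_one, zpow_one]
  · exact Commute.zpow_zpow_self g _ _
  · have hb : orderOf (g ^ ((a : ℤ) * a.gcdA b)) ∣ b := by
      rw [orderOf_dvd_iff_pow_eq_one, ← zpow_natCast, ← zpow_mul, mul_comm, ← mul_assoc,
        ← Nat.cast_mul, mul_comm b a, hab, zpow_mul, zpow_natCast, pow_orderOf_eq_one, one_zpow]
    exact (Nat.coprime_ordCompl hp.out hn0).symm.coprime_dvd_left hb
  · rw [← zpow_natCast, ← zpow_mul, mul_comm, ← mul_assoc, ← Nat.cast_mul, hab, zpow_mul,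
      zpow_natCast, pow_orderOf_eq_one, one_zpow]

/-- The count. -/
theorem IsCompleteList.card_eq :
    Nat.card {c : ConjClasses G // ∃ g : G, ConjClasses.mk g = c ∧ (orderOf g).Coprime p} =
      Nat.card P := by
  classical
  set C := {c : ConjClasses G // ∃ g : G, ConjClasses.mk g = c ∧ (orderOf g).Coprime p}
  haveI := Fintype.ofFinite P
  haveI : Finite (ConjClasses G) := Finite.of_surjective _ ConjClasses.mk_surjective
  haveI : Finite C := Subtype.finite
  haveI := Fintype.ofFinite C
  have hrep : ∀ c : C, ∃ g : G, ConjClasses.mk g = c.1 ∧ (orderOf g).Coprime p := fun c => c.2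
  choose rep hrep hcop using hrep
  let tc : P → C → k := fun x c => LinearMap.trace k (V x) (ρ x (rep c))
  -- traces are class functions determined on `C`
  have htr : ∀ g : G, ∃ c : C, ∀ x, LinearMap.trace k (V x) (ρ x g) = tc x c := by
    intro g
    obtain ⟨s, u, rfl, hsu, hs, m, hu⟩ := exists_parts (p := p) g
    set c : C := ⟨ConjClasses.mk s, s, rfl, hs⟩
    obtain ⟨y, hy⟩ := isConj_iff.1 (ConjClasses.mk_eq_mk_iff_isConj.1 (hrep c))
    refine ⟨c, fun x => ?_⟩
    rw [trace_eq_of_pElement (ρ x) hsu hu, ← hy]
    simp only [tc]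
    rw [map_mul, LinearMap.trace_mul_comm, ← map_mul, show y⁻¹ * (y * rep c) = rep c by group]
  let Φ : (P → k) →ₗ[k] (C → k) :=
    { toFun := fun b c => ∑ x, b x * tc x c
      map_add' := fun b b' => by funext c; simp [add_mul, Finset.sum_add_distrib]
      map_smul' := fun r b => by funext c; simp [Finset.mul_sum, mul_assoc] }
  let Ψ : (C → k) →ₗ[k] (P → k) :=
    { toFun := fun a x => ∑ c, a c * tc x c
      map_add' := fun b b' => by funext c; simp [add_mul, Finset.sum_add_distrib]
      map_smul' := fun r b => by funext c; simp [Finset.mul_sum, mul_assoc] }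
  have hΦ : Function.Injective Φ := by
    rw [injective_iff_map_eq_zero]
    intro b hb
    have hlin : ∀ z, ∑ x, b x * LinearMap.trace k (V x) ((ρ x).asAlgebraHom z) = 0 := by
      intro z
      induction z using MonoidAlgebra.induction_linear with
      | zero => simp
      | add z w hz hw => simp [mul_add, Finset.sum_add_distrib, hz, hw]
      | single g r =>
        obtain ⟨c, hc⟩ := htr g
        have := congrFun hb c
        simp only [Φ, LinearMap.coe_mk, AddHom.coe_mk, Pi.zero_apply] at this
        simp only [Representation.asAlgebraHom_single, map_smul, smul_eq_mul, hc]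
        rw [Finset.sum_congr rfl fun x _ => mul_left_comm (b x) r (tc x c), ← Finset.mul_sum, this,
          mul_zero]
    funext x
    haveI := (h.irr x).nontrivial
    obtain ⟨v, hv⟩ := exists_ne (0 : V x)
    obtain ⟨φ, hφ⟩ := exists_dual_ne (k := k) hv
    obtain ⟨z, hz⟩ := h.exists_lift (Pi.single x (φ.smulRight v))
    have h1 := hlin z
    simp only [hz] at h1
    rw [Finset.sum_eq_single x (fun y _ hy => by rw [Pi.single_eq_of_ne hy, map_zero, mul_zero])
      (by simp), Pi.single_eq_same, trace_rankOne] at h1
    exact (mul_eq_zero.1 h1).resolve_right hφ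
  have hΨ : Function.Injective Ψ := by
    rw [injective_iff_map_eq_zero]
    intro a ha
    set z : MonoidAlgebra k G := ∑ c, MonoidAlgebra.single (rep c) (a c) with hzdef
    have hz : ∀ x, LinearMap.trace k (V x) ((ρ x).asAlgebraHom z) = 0 := by
      intro x
      simp only [hzdef, map_sum, Representation.asAlgebraHom_single, map_smul, smul_eq_mul]
      exact congrFun ha x
    obtain ⟨w, ⟨n, hw⟩, hzw⟩ := h.trEq_nilpotent z hz
    funext c₀
    obtain ⟨m₀, hm₀⟩ : ∃ m, n ≤ p ^ m := ⟨n, (Nat.lt_pow_self hp.out.one_lt).le⟩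
    set m := m₀
    set c₁ := ConjClasses.mk (rep c₀ ^ p ^ m)
    let τ : MonoidAlgebra k G →ₗ[k] k := (Finsupp.lsum k fun g : G =>
      if ConjClasses.mk g = c₁ then LinearMap.id else 0) ∘ₗ
        (MonoidAlgebra.coeffLinearEquiv k).toLinearMap
    have hτs : ∀ (g : G) (r : k), τ (MonoidAlgebra.single g r) =
        if ConjClasses.mk g = c₁ then r else 0 := by
      intro g r
      simp only [τ, LinearMap.coe_comp, LinearEquiv.coe_coe, Function.comp_apply]
      split_ifs with hg <;> simp [hg]
    have hτ : Tracial τ := by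
      intro u v
      induction u using MonoidAlgebra.induction_linear with
      | zero => simp
      | add u u' hu hu' => rw [add_mul, mul_add, map_add, map_add, hu, hu']
      | single g r =>
        induction v using MonoidAlgebra.induction_linear with
        | zero => simp
        | add v v' hv hv' => rw [add_mul, mul_add, map_add, map_add, hv, hv']
        | single g' r' =>
          rw [MonoidAlgebra.single_mul_single, MonoidAlgebra.single_mul_single, hτs, hτs,
            mul_comm r' r, show ConjClasses.mk (g * g') = ConjClasses.mk (g' * g) from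
              ConjClasses.mk_eq_mk_iff_isConj.2 (isConj_iff.2 ⟨g⁻¹, by group⟩)]
    have h1 := trEq_pow_char_pow (p := p) hzw m τ hτ
    rw [trEq_sum_pow Finset.univ (fun c => MonoidAlgebra.single (rep c) (a c)) m τ hτ, map_sum,
      pow_eq_zero_of_le hm₀ hw, map_zero] at h1
    simp only [MonoidAlgebra.single_pow, hτs] at h1
    rw [Finset.sum_eq_single c₀] at h1
    · rw [if_pos rfl] at h1
      exact pow_eq_zero_iff (pow_ne_zero m hp.out.ne_zero) |>.1 h1
    · intro c _ hc
      refine if_neg fun e => hc ?_
      -- raising to the power `p ^ m` is injective on classes of order prime to `p`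
      obtain ⟨y, hy⟩ := isConj_iff.1 (ConjClasses.mk_eq_mk_iff_isConj.1 e)
      rw [← conj_pow] at hy
      have e2 : (y * rep c * y⁻¹) = rep c₀ := by
        have h2 : (orderOf (y * rep c * y⁻¹)).Coprime (p ^ m) := by
          rw [show y * rep c * y⁻¹ = MulAut.conj y (rep c) from rfl, MulEquiv.orderOf_eq]
          exact (hcop c).pow_right m
        have hj' : orderOf (y * rep c * y⁻¹) = orderOf (rep c₀) := by
          have a1 := Nat.Coprime.orderOf_pow h2
          rw [hy, Nat.Coprime.orderOf_pow ((hcop c₀).pow_right m)] at a1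
          exact a1.symm
        obtain ⟨d, hd⟩ : ∃ d, ∀ g : G, orderOf g = orderOf (rep c₀) → (g ^ p ^ m) ^ d = g := by
          refine ⟨(Nat.gcdA (p ^ m) (orderOf (rep c₀)) % (orderOf (rep c₀) : ℤ)).toNat, fun g hg => ?_⟩
          have hpos : (0 : ℤ) < (orderOf (rep c₀) : ℤ) := by exact_mod_cast orderOf_pos (rep c₀)
          have e := Nat.gcd_eq_gcd_ab (p ^ m) (orderOf (rep c₀))
          rw [((hcop c₀).pow_right m).symm] at e
          rw [← zpow_natCast, ← zpow_natCast g, ← zpow_mul,
            Int.toNat_of_nonneg (Int.emod_nonneg _ hpos.ne')]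
          conv_rhs => rw [← zpow_one g]
          rw [← hg, zpow_eq_zpow_iff_modEq]
          rw [hg, Int.modEq_iff_dvd]
          refine ⟨Nat.gcdB (p ^ m) (orderOf (rep c₀)) +
            ((p ^ m : ℕ) : ℤ) * (Nat.gcdA (p ^ m) (orderOf (rep c₀)) / (orderOf (rep c₀) : ℤ)), ?_⟩
          push_cast at e ⊢
          rw [Int.emod_def]
          linear_combination e
        rw [← hd _ hj', hy, hd _ rfl]
      exact Subtype.ext (by
        rw [← hrep c, ← hrep c₀]
        exact ConjClasses.mk_eq_mk_iff_isConj.2 (isConj_iff.2 ⟨y, e2⟩))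
    · simp
  have h1 := LinearMap.finrank_le_finrank_of_injective hΦ
  have h2 := LinearMap.finrank_le_finrank_of_injective hΨ
  simp only [Module.finrank_pi] at h1 h2
  rw [Nat.card_eq_fintype_card, Nat.card_eq_fintype_card]
  omega

end CfsgLib.ModularReps
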