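import Mathlib

/-!
Powers of the characteristic modulo additive commutators: tracial functionals turn `p`-th powers
of sums into sums of `p`-th powers.
-/

set_option autoImplicit false

open Polynomial

namespace CfsgLib.ModularReps

variable {k : Type*} [Field k] {A : Type*} [Ring A] [Algebra k A]

/-- A linear functional vanishing on additive commutators. -/
def Tracial (τ : A →ₗ[k] k) : Prop := ∀ a b, τ (a * b) = τ (b * a)

theorem coeff_mul_comm {τ : A →ₗ[k] k} (hτ : Tracial τ) (P Q : A[X]) (j : ℕ) :
    τ ((P * Q).coeff j) = τ ((Q * P).coeff j) := by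
  rw [coeff_mul, coeff_mul, map_sum, map_sum, ← Finset.sum_bij (fun x _ => Prod.swap x)]
  · exact fun x hx => Finset.HasAntidiagonal.mem_antidiagonal.2 (by
      rw [Prod.fst_swap, Prod.snd_swap, add_comm]; exact Finset.HasAntidiagonal.mem_antidiagonal.1 hx)
  · exact fun x _ y _ e => Prod.swap_injective e
  · exact fun x hx => ⟨x.swap, Finset.HasAntidiagonal.mem_antidiagonal.2 (by
      rw [Prod.fst_swap, Prod.snd_swap, add_comm]; exact Finset.HasAntidiagonal.mem_antidiagonal.1 hx),
      Prod.swap_swap x⟩
  · exact fun x _ => hτ _ _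

theorem coeff_derivative_pow {τ : A →ₗ[k] k} (hτ : Tracial τ) (Q : A[X]) :
    ∀ (n : ℕ) (R : A[X]), Commute Q R → ∀ j : ℕ,
      τ ((derivative (Q ^ n) * R).coeff j) =
        (n : k) * τ ((Q ^ (n - 1) * derivative Q * R).coeff j) := by
  intro n
  induction n with
  | zero => intro R _ j; simp
  | succ n ih =>
    intro R hR j
    rw [pow_succ, derivative_mul, add_mul, coeff_add, map_add, mul_assoc,
      ih (Q * R) ((Commute.refl Q).mul_right hR) j, Nat.add_sub_cancel]
    rcases n with _ | n
    · simp
    · rw [Nat.add_sub_cancel]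
      have e : τ ((Q ^ n * derivative Q * (Q * R)).coeff j) =
          τ ((Q ^ (n + 1) * derivative Q * R).coeff j) := by
        rw [show Q * R = R * Q from hR.eq, ← mul_assoc, coeff_mul_comm hτ, pow_succ']
        simp only [mul_assoc]
      rw [e]
      push_cast
      ring

theorem map_add_pow_char {p : ℕ} [hp : Fact p.Prime] [CharP k p] {τ : A →ₗ[k] k} (hτ : Tracial τ)
    (a b : A) : τ ((a + b) ^ p) = τ (a ^ p) + τ (b ^ p) := by
  set Q : A[X] := C a + X * C b with hQ
  have hdeg : ∀ n : ℕ, (Q ^ n).natDegree ≤ n := by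
    intro n
    refine natDegree_pow_le.trans ?_
    have h1 : Q.natDegree ≤ 1 := by
      refine (natDegree_add_le _ _).trans (max_le (by simp) ?_)
      refine natDegree_mul_le.trans ?_
      have := natDegree_X_le (R := A)
      simp only [natDegree_C, add_zero]
      exact this
    calc n * Q.natDegree ≤ n * 1 := Nat.mul_le_mul_left n h1
      _ = n := mul_one n
  have hz : ∀ j, j + 1 < p → τ ((Q ^ p).coeff (j + 1)) = 0 := by
    intro j hj
    have h1 := coeff_derivative_pow hτ Q p 1 (Commute.one_right Q) j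
    rw [mul_one, CharP.cast_eq_zero, zero_mul, coeff_derivative] at h1
    rw [show (Q ^ p).coeff (j + 1) * ((j : A) + 1) = ((j + 1 : ℕ) : k) • (Q ^ p).coeff (j + 1) by
      rw [Algebra.smul_def, map_natCast, Nat.cast_add, Nat.cast_one, (Nat.cast_commute j _).add_left
        (Commute.one_left _) |>.eq], map_smul, smul_eq_zero] at h1
    refine h1.resolve_left fun e => ?_
    rw [CharP.cast_eq_zero_iff k p] at e
    exact absurd (Nat.le_of_dvd (Nat.succ_pos j) e) (by omega)
  have hlow : ∀ n : ℕ, (Q ^ n).coeff 0 = a ^ n := by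
    intro n
    induction n with
    | zero => simp
    | succ n ih => rw [pow_succ, mul_coeff_zero, ih, pow_succ]; simp [hQ]
  have hQ1 : Q.coeff 1 = b := by simp [hQ]
  have htop : ∀ n : ℕ, (Q ^ n).coeff n = b ^ n := by
    intro n
    induction n with
    | zero => simp
    | succ n ih =>
      rw [pow_succ, coeff_mul_add_eq_of_natDegree_le (hdeg n) (by simpa using hdeg 1), ih, hQ1,
        pow_succ]
  have heval : (a + b) ^ p = ∑ j ∈ Finset.range (p + 1), (Q ^ p).coeff j := by
    let e : A[X] →+* A := eval₂RingHom' (RingHom.id A) 1 fun x => Commute.one_right _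
    have h1 : e (Q ^ p) = (a + b) ^ p := by
      rw [map_pow, hQ, map_add, map_mul]
      simp [e, eval₂RingHom']
    rw [← h1]
    show eval₂ (RingHom.id A) 1 (Q ^ p) = _
    rw [eval₂_eq_sum_range' _ (show (Q ^ p).natDegree < p + 1 by have := hdeg p; omega)]
    simp
  rw [heval, map_sum, Finset.sum_range_succ, ← hlow p, ← htop p]
  congr 1
  refine Finset.sum_eq_single 0 (fun j hj hj0 => ?_) (fun h => ?_)
  · obtain ⟨j, rfl⟩ := Nat.exists_eq_succ_of_ne_zero hj0
    exact hz j (Finset.mem_range.1 hj)
  · exact absurd (Finset.mem_range.2 hp.out.pos) h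

/-- Equality under every tracial functional. -/
def TrEq (k : Type*) [Field k] {A : Type*} [Ring A] [Algebra k A] (a b : A) : Prop :=
  ∀ τ : A →ₗ[k] k, Tracial τ → τ a = τ b

section

variable {p : ℕ} [Fact p.Prime] [CharP k p]

theorem trEq_pow_char {x y : A} (h : TrEq k x y) : TrEq k (x ^ p) (y ^ p) := by
  intro τ hτ
  -- write `x = y + t` with `t` killed by all tracial functionals
  set N : Submodule k A := Submodule.span k (Set.range fun ab : A × A => ab.1 * ab.2 - ab.2 * ab.1)
  have hmem : x - y ∈ N := by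
    by_contra hne
    obtain ⟨f, hf, hfN⟩ := Submodule.exists_dual_map_eq_bot_of_notMem hne inferInstance
    refine hf ?_
    rw [map_sub, sub_eq_zero]
    refine h f fun a b => sub_eq_zero.1 ?_
    rw [← map_sub]
    exact (Submodule.mem_bot k).1 (hfN ▸ Submodule.mem_map_of_mem
      (Submodule.subset_span ⟨(a, b), rfl⟩))
  have hN : ∀ t ∈ N, ∀ σ : A →ₗ[k] k, Tracial σ → σ (t ^ p) = 0 := by
    intro t ht
    induction ht using Submodule.span_induction with
    | mem t ht =>
      intro σ hσ
      obtain ⟨⟨a, b⟩, rfl⟩ := ht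
      show σ ((a * b - b * a) ^ p) = 0
      rw [sub_eq_add_neg, map_add_pow_char hσ, ← neg_one_smul k (b * a), _root_.smul_pow, map_smul]
      have e1 : σ ((a * b) ^ p) = σ ((b * a) ^ p) := by
        obtain ⟨m, hm⟩ := Nat.exists_eq_succ_of_ne_zero (Fact.out : p.Prime).ne_zero
        have e : ∀ m : ℕ, (a * b) ^ (m + 1) = a * ((b * a) ^ m * b) := by
          intro m
          induction m with
          | zero => simp
          | succ m ih => rw [pow_succ, ih, pow_succ (b * a)]; simp only [mul_assoc]
        rw [hm, e, hσ, pow_succ (b * a), mul_assoc]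
      have e2 : (-1 : k) ^ p = -1 := by
        rw [← frobenius_def, map_neg, map_one]
      rw [e1, e2, neg_one_smul, add_neg_cancel]
    | zero => intro σ _; rw [zero_pow (Fact.out : p.Prime).ne_zero, map_zero]
    | add u v _ _ hu hv => intro σ hσ; rw [map_add_pow_char hσ, hu σ hσ, hv σ hσ, add_zero]
    | smul c u _ hu => intro σ hσ; rw [_root_.smul_pow, map_smul, hu σ hσ, smul_zero]
  rw [show x = y + (x - y) by abel, map_add_pow_char hτ, hN _ hmem τ hτ, add_zero]

theorem trEq_pow_char_pow {x y : A} (h : TrEq k x y) : ∀ m : ℕ, TrEq k (x ^ p ^ m) (y ^ p ^ m) := by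
  intro m
  induction m with
  | zero => simpa using h
  | succ m ih => rw [pow_succ, pow_mul, pow_mul]; exact trEq_pow_char ih

theorem trEq_add_pow (x y : A) : ∀ m : ℕ, TrEq k ((x + y) ^ p ^ m) (x ^ p ^ m + y ^ p ^ m) := by
  intro m
  induction m with
  | zero => intro τ _; simp
  | succ m ih =>
    intro τ hτ
    rw [pow_succ, pow_mul, pow_mul, pow_mul, trEq_pow_char ih τ hτ, map_add_pow_char hτ, map_add]

theorem trEq_sum_pow {ι : Type*} (s : Finset ι) (f : ι → A) (m : ℕ) :
    TrEq k ((∑ i ∈ s, f i) ^ p ^ m) (∑ i ∈ s, f i ^ p ^ m) := by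
  classical
  induction s using Finset.induction_on with
  | empty =>
    intro τ _
    simp [zero_pow (pow_ne_zero m (Fact.out : p.Prime).ne_zero)]
  | insert a s ha ih =>
    intro τ hτ
    rw [Finset.sum_insert ha, Finset.sum_insert ha, trEq_add_pow _ _ m τ hτ, map_add, map_add,
      ih τ hτ]

end

end CfsgLib.ModularReps
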